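import Mathlib
import Cfsg.Agent.Lib.Helper56.TC

set_option autoImplicit false
set_option maxRecDepth 1000000

namespace Cfsg.Agent.Lib.Helper56.ME7U2

open Cfsg.Agent.Lib.Helper56.TC Cfsg.Agent.Lib.Helper56.TC.Tabs

noncomputable def nA0 : List ℕ := [
0x47665c21706d4820823e182002239bc48218c8e2380]

noncomputable def fA0 : List ℕ := [
0xfa9c9d7924164000]

end Cfsg.Agent.Lib.Helper56.ME7U2
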